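import Mathlib

set_option autoImplicit false

/-!
A model of `S₄` as the special orthogonal group of `x² + y z` over the field with three elements.
-/

namespace CfsgLib.H29.SOThreeThree

open Matrix

/-- The basis of the sum zero vectors. -/
def B : Fin 3 → Fin 4 → ZMod 3 := ![![0, 0, 1, 2], ![0, 1, 1, 1], ![2, 0, 2, 2]]

/-- The form on the sum zero vectors. -/
def dt (u v : Fin 4 → ZMod 3) : ZMod 3 := 2 * (u 0 * v 0 + u 1 * v 1 + u 2 * v 2 + u 3 * v 3)

/-- Coordinates with respect to the basis. -/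
def co (u : Fin 4 → ZMod 3) : Fin 3 → ZMod 3 := ![dt u (B 0), 2 * dt u (B 2), 2 * dt u (B 1)]

/-- The matrix of a permutation, twisted by the sign. -/
def M (σ : Equiv.Perm (Fin 4)) : Matrix (Fin 3) (Fin 3) (ZMod 3) :=
  Matrix.of fun i j => ((Equiv.Perm.sign σ : ℤ) : ZMod 3) * co (fun k => B j (σ.symm k)) i

/-- The form `x² + y z`. -/
def Q (v : Fin 3 → ZMod 3) : ZMod 3 := v 0 ^ 2 + v 1 * v 2

/-- Its polar form. -/
def P (u v : Fin 3 → ZMod 3) : ZMod 3 := 2 * u 0 * v 0 + u 1 * v 2 + u 2 * v 1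

/-- The determinant of three columns. -/
def D (a b c : Fin 3 → ZMod 3) : ZMod 3 :=
  a 0 * b 1 * c 2 - a 0 * b 2 * c 1 - a 1 * b 0 * c 2 + a 1 * b 2 * c 0 + a 2 * b 0 * c 1 - a 2 * b 1 * c 0

theorem M_mul : ∀ σ τ, M (σ * τ) = M σ * M τ := by decide +kernel

theorem M_inj : ∀ σ τ, M σ = M τ → σ = τ := by decide +kernel

theorem Q_M : ∀ σ v, Q (M σ *ᵥ v) = Q v := by decide +kernel

theorem D_M : ∀ σ, D (fun i => M σ i 0) (fun i => M σ i 1) (fun i => M σ i 2) = 1 := by decide +kernel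

theorem polar : ∀ u v, P u v = Q (u + v) - Q u - Q v := by decide +kernel

set_option synthInstance.maxSize 4000 in
set_option synthInstance.maxHeartbeats 400000 in
theorem complete : ∀ a : Fin 3 → ZMod 3, Q a = 1 → ∀ b : Fin 3 → ZMod 3, Q b = 0 → P a b = 0 →
    ∀ c : Fin 3 → ZMod 3, Q c = 0 → P a c = 0 → P b c = 1 → D a b c = 1 →
    ∃ σ, ∀ i, M σ i 0 = a i ∧ M σ i 1 = b i ∧ M σ i 2 = c i := by decide +kernel

end CfsgLib.H29.SOThreeThree
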